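import Cfsg.Agent.H836.CosetGow

/-!
# Powers of a class sum of a coset of a normal subgroup (helper848, S3938)

* `cv τ k x` : the number of `k`-tuples of conjugates of `τ` with product `x`;
* `sum_cv` : `∑ cv τ k x ψ x = ω_ψ(τ)^k ψ 1`;
* `sum_class_sub` : `A` a class function with values in `ℕ`, `θ`, `θ'` in one block: `∑ A x θ x / θ 1 ≡ ∑ A x θ' x / θ' 1`;
* `centralChar_mem` : `L = N⟨τ⟩`, `τ ^ r = 1`, `ψ|N` in the principal block of `N`, `p ∣ |τ^L|`: `ω_ψ(τ)` lies in `M`.
-/

set_option autoImplicit false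

namespace Cfsg.Agent.H848.Out

open Cfsg Subgroup
open Cfsg.Agent.Characters.Core

variable {L : Type*} [Group L]

open scoped Classical in
/-- the number of `k`-tuples of conjugates of `τ` with product `x` -/
noncomputable def cv [Fintype L] (τ : L) : ℕ → L → ℕ
  | 0, x => if x = 1 then 1 else 0
  | k + 1, x => ∑ u with IsConj τ u, cv τ k (u⁻¹ * x)

variable [Fintype L]

theorem cv_conj (τ : L) (k : ℕ) : ∀ h x : L, cv τ k (h * x * h⁻¹) = cv τ k x := by
  classical
  induction k with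
  | zero =>
    intro h x
    unfold cv
    have : h * x * h⁻¹ = 1 ↔ x = 1 := by
      rw [mul_inv_eq_one, mul_eq_left]
    simp only [this]
  | succ k ih =>
    intro h x
    unfold cv
    refine Finset.sum_nbij' (fun u => h⁻¹ * u * h) (fun u => h * u * h⁻¹) ?_ ?_ ?_ ?_ ?_
    · intro u hu
      rw [Finset.mem_filter] at hu ⊢
      refine ⟨Finset.mem_univ _, hu.2.trans ?_⟩
      rw [isConj_iff]
      exact ⟨h⁻¹, by group⟩
    · intro u hu
      rw [Finset.mem_filter] at hu ⊢
      refine ⟨Finset.mem_univ _, hu.2.trans ?_⟩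
      rw [isConj_iff]
      exact ⟨h, by group⟩
    · intro u _; group
    · intro u _; group
    · intro u _
      rw [← ih h ((h⁻¹ * u * h)⁻¹ * x)]
      congr 1
      group

theorem sum_cv (τ : L) {ψ : L → ℂ} (hψ : IsIrrCharacter L ψ) (k : ℕ) :
    ∑ x, (cv τ k x : ℂ) * ψ x = centralChar ψ τ ^ k * ψ 1 := by
  classical
  induction k with
  | zero =>
    unfold cv
    rw [Finset.sum_eq_single (1 : L)]
    · simp
    · intro x _ hx
      rw [if_neg hx]
      simp
    · intro h
      exact absurd (Finset.mem_univ _) h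
  | succ k ih =>
    have h1 : ∑ x, (cv τ (k + 1) x : ℂ) * ψ x =
        ∑ u with IsConj τ u, ∑ x, (cv τ k (u⁻¹ * x) : ℂ) * ψ x := by
      rw [Finset.sum_comm]
      refine Finset.sum_congr rfl fun x _ => ?_
      conv_lhs => unfold cv
      rw [Nat.cast_sum, Finset.sum_mul]
    have h2 : ∀ u : L, ∑ x, (cv τ k (u⁻¹ * x) : ℂ) * ψ x = ∑ y, (cv τ k y : ℂ) * ψ (u * y) := by
      intro u
      refine Fintype.sum_equiv (Equiv.mulLeft u⁻¹) _ _ fun x => ?_
      change _ = (cv τ k (u⁻¹ * x) : ℂ) * ψ (u * (u⁻¹ * x))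
      rw [mul_inv_cancel_left]
    rw [h1, Finset.sum_congr rfl fun u _ => h2 u, Finset.sum_comm]
    have h3 : ∀ y : L, ∑ u with IsConj τ u, (cv τ k y : ℂ) * ψ (u * y) =
        centralChar ψ τ * ((cv τ k y : ℂ) * ψ y) := by
      intro y
      rw [← Finset.mul_sum, Characters.ClassMul.sum_class_char_mul hψ τ y]
      unfold centralChar
      ring
    rw [Finset.sum_congr rfl fun y _ => h3 y, ← Finset.mul_sum, ih, pow_succ]
    ring

/-- the support of `cv` -/
theorem cv_support (N : Subgroup L) [N.Normal] (hab : ∀ x y : L, x * y * x⁻¹ * y⁻¹ ∈ N) (τ : L) (k : ℕ) :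
    ∀ x : L, cv τ k x ≠ 0 → x * (τ ^ k)⁻¹ ∈ N := by
  classical
  induction k with
  | zero =>
    intro x hx
    unfold cv at hx
    have h1 : x = 1 := by
      by_contra h
      exact hx (if_neg h)
    rw [h1]
    simp
  | succ k ih =>
    intro x hx
    unfold cv at hx
    obtain ⟨u, hu, h1⟩ := Finset.exists_ne_zero_of_sum_ne_zero hx
    obtain ⟨c, hc⟩ := isConj_iff.1 (Finset.mem_filter.1 hu).2
    have h2 := ih _ h1
    rw [← QuotientGroup.eq_one_iff] at h2 ⊢
    have h3 : ((c * τ * c⁻¹ * τ⁻¹ : L) : L ⧸ N) = 1 := (QuotientGroup.eq_one_iff _).2 (hab c τ)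
    rw [hc] at h3
    have h4 : ((u : L) : L ⧸ N) = (τ : L ⧸ N) := by
      rw [QuotientGroup.mk_mul, QuotientGroup.mk_inv, mul_inv_eq_one] at h3
      exact h3
    have h5 : ((τ : L) * (u⁻¹ * x * (τ ^ k)⁻¹) * τ⁻¹ : L) = τ * u⁻¹ * (x * (τ ^ (k + 1))⁻¹) := by
      rw [pow_succ]
      group
    have h6 : ((τ * u⁻¹ * (x * (τ ^ (k + 1))⁻¹) : L) : L ⧸ N) = 1 := by
      rw [← h5]
      simp only [QuotientGroup.mk_mul, QuotientGroup.mk_inv] at h2 ⊢
      rw [h2]
      group
    rw [QuotientGroup.mk_mul, QuotientGroup.mk_mul, QuotientGroup.mk_inv, h4, mul_inv_cancel, one_mul] at h6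
    exact h6

omit [Fintype L] in
/-- sums of class functions and blocks -/
theorem sum_class_sub [Finite L] {p : ℕ} {M : Ideal AlgInt} (hM : IsPModular p M) [Fintype L] {θ θ' : L → ℂ}
    (hθc : ∀ g x, θ (g * x * g⁻¹) = θ x) (hθc' : ∀ g x, θ' (g * x * g⁻¹) = θ' x)
    (hB : ∀ g, MemLocalIdeal M (centralChar θ g - centralChar θ' g)) {A : L → ℕ}
    (hA : ∀ g x, A (g * x * g⁻¹) = A x) :
    MemLocalIdeal M (∑ x, (A x : ℂ) * θ x / θ 1 - ∑ x, (A x : ℂ) * θ' x / θ' 1) := by
  classical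
  have := Blocks.Local.isPrime_of_isPModular hM
  rw [← Finset.sum_sub_distrib, ← Finset.sum_fiberwise (s := Finset.univ) (g := fun x : L => ConjClasses.mk x)]
  refine Blocks.Local.memLocalIdeal_sum fun c _ => ?_
  obtain ⟨g, rfl⟩ := ConjClasses.mk_surjective c
  have h1 : Finset.univ.filter (fun x : L => ConjClasses.mk x = ConjClasses.mk g) =
      Finset.univ.filter (IsConj g) := by
    ext x
    simp only [Finset.mem_filter, Finset.mem_univ, true_and]
    rw [ConjClasses.mk_eq_mk_iff_isConj, isConj_comm]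
  have h2 : ∀ x ∈ Finset.univ.filter (fun x : L => ConjClasses.mk x = ConjClasses.mk g),
      (A x : ℂ) * θ x / θ 1 - (A x : ℂ) * θ' x / θ' 1 = (A g : ℂ) * θ g / θ 1 - (A g : ℂ) * θ' g / θ' 1 := by
    intro x hx
    rw [h1, Finset.mem_filter] at hx
    obtain ⟨c, rfl⟩ := isConj_iff.1 hx.2
    rw [hA, hθc, hθc']
  rw [Finset.sum_congr rfl h2, Finset.sum_const, h1, Characters.ClassMul.card_filter_isConj, nsmul_eq_mul]
  have h3 : ((centralizer ({g} : Set L)).index : ℂ) * ((A g : ℂ) * θ g / θ 1 - (A g : ℂ) * θ' g / θ' 1) =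
      (A g : ℂ) * (centralChar θ g - centralChar θ' g) := by
    unfold centralChar
    ring
  rw [h3]
  exact Blocks.Local.memLocalIdeal_mul_left (Blocks.Local.memLocalRing_natCast _) (hB g)

/-- **the central character at an outer element** -/
theorem centralChar_mem (N : Subgroup L) [N.Normal] {p : ℕ} {M : Ideal AlgInt} (hM : IsPModular p M)
    (hab : ∀ x y : L, x * y * x⁻¹ * y⁻¹ ∈ N) {τ : L} {r : ℕ} (hr0 : r ≠ 0) (hr : τ ^ r = 1)
    (hd : p ∣ (centralizer ({τ} : Set L)).index) {ψ : L → ℂ} (hψ : IsIrrCharacter L ψ)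
    {θ : IrrCharacter ↥N} (hθ : (θ : ↥N → ℂ) = fun n : N => ψ n) (hB : θ ∈ principalBlock M ↥N) :
    MemLocalIdeal M (centralChar ψ τ) := by
  classical
  have := Blocks.Local.isPrime_of_isPModular hM
  -- the sum over `N`
  have hsum : ∀ φ : L → ℂ, ∑ x, (cv τ r x : ℂ) * φ x = ∑ n : N, (cv τ r (n : L) : ℂ) * φ n := by
    intro φ
    have h1 : ∑ x, (cv τ r x : ℂ) * φ x = ∑ x with x ∈ N, (cv τ r x : ℂ) * φ x := by
      rw [Finset.sum_filter]
      refine Finset.sum_congr rfl fun x _ => ?_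
      split_ifs with hx
      · rfl
      · have : cv τ r x = 0 := by
          by_contra h
          have h2 := cv_support N hab τ r x h
          rw [hr, inv_one, mul_one] at h2
          exact hx h2
        rw [this, Nat.cast_zero, zero_mul]
    rw [h1]
    refine Finset.sum_bij (fun g hg => (⟨g, (Finset.mem_filter.1 hg).2⟩ : N)) (fun _ _ => Finset.mem_univ _) ?_ ?_ ?_
    · intro a _ b _ hab
      exact congrArg Subtype.val hab
    · intro b _
      exact ⟨b, by simp, rfl⟩
    · intro a _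
      rfl
  have hψ1 : ψ 1 ≠ 0 := by
    rw [Blocks.Basic.irr_one_eq_charDegree hψ]
    exact_mod_cast (Blocks.Basic.charDegree_pos hψ).ne'
  have e1 : centralChar ψ τ ^ r = ∑ n : N, (cv τ r (n : L) : ℂ) * (θ : ↥N → ℂ) n / (θ : ↥N → ℂ) 1 := by
    have h1 := sum_cv τ hψ r
    rw [hsum] at h1
    have h2 : (θ : ↥N → ℂ) 1 = ψ 1 := by rw [hθ]; rfl
    rw [← Finset.sum_div, h2, eq_div_iff hψ1, ← h1]
    refine Finset.sum_congr rfl fun n _ => ?_
    rw [hθ]
  have htriv : IsIrrCharacter L (fun _ : L => (1 : ℂ)) := isIrr_one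
  have e2 : ((centralizer ({τ} : Set L)).index : ℂ) ^ r = ∑ n : N, (cv τ r (n : L) : ℂ) * 1 / 1 := by
    have h1 := sum_cv τ htriv r
    rw [hsum] at h1
    unfold centralChar at h1
    rw [mul_one, div_one, mul_one] at h1
    rw [← h1]
    exact Finset.sum_congr rfl fun n _ => by rw [div_one]
  have h3 : MemLocalIdeal M (centralChar ψ τ ^ r - ((centralizer ({τ} : Set L)).index : ℂ) ^ r) := by
    rw [e1, e2]
    refine sum_class_sub hM (A := fun n : N => cv τ r (n : L)) (θ := (θ : ↥N → ℂ)) (θ' := fun _ => 1) ?_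
      (fun _ _ => rfl) ?_ ?_
    · intro g x
      rw [hθ]
      exact isIrr_isClassFunction hψ x g
    · intro g
      exact Blocks.Local.memLocalIdeal_sub_comm (hB g)
    · intro g x
      exact cv_conj τ r (g : L) (x : L)
  have h4 : MemLocalIdeal M (((centralizer ({τ} : Set L)).index : ℂ) ^ r) :=
    Blocks.Local.memLocalIdeal_pow ((Blocks.Local.memLocalIdeal_natCast_iff hM _).2 hd) hr0
  have h5 : MemLocalIdeal M (centralChar ψ τ ^ r) := by
    have := Blocks.Local.memLocalIdeal_add h3 h4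
    rwa [sub_add_cancel] at this
  have hint : MemLocalRing M (centralChar ψ τ) :=
    Blocks.Local.memLocalRing_of_isIntegral (Cfsg.Agent.Blocks.Central.isIntegral_centralChar hψ τ)
  clear h3 h4 e1 e2 hr hr0 hsum
  induction r with
  | zero =>
    rw [pow_zero, ← Nat.cast_one, Blocks.Local.memLocalIdeal_natCast_iff hM] at h5
    exact absurd (Nat.dvd_one.1 h5) hM.1.ne_one
  | succ r ih =>
    rw [pow_succ] at h5
    rcases Blocks.Local.memLocalIdeal_or_of_mul (Blocks.Local.memLocalRing_pow hint r) hint h5 with h | h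
    · exact ih h
    · exact h

end Cfsg.Agent.H848.Out
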