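import Cfsg.Agent.H848.Out.Conv
import Cfsg.Agent.H470.PiRad.CosetSt

/-!
# Gow's theorem for an element of an outer coset (helper848, S3938)

* `coset_prod` : `N` simple of Lie type in characteristic `p`, `L = N⟨τ⟩ = N⟨y⟩`, `y τ⁻¹ ∈ N`, `X ∈ N`, and a character
  of `L` extending the Steinberg character with values `± 1` at `X` and `y`: `τ` is a product of conjugates of `X` and `y`.
-/

set_option autoImplicit false
set_option linter.unusedSectionVars false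

namespace Cfsg.Agent.H848.Out

open Cfsg Subgroup
open Cfsg.Agent.Characters.Core
open Cfsg.Agent.CharactersDeep
open Cfsg.Agent.BpLieP.Big (LocChar)
open Cfsg.Agent.Omega.ML.LieRow.CRB (HasSplitAb)
open Cfsg.Agent.H836.CosetGow
open scoped ComplexConjugate

variable {L : Type*} [Group L] [Finite L]

/-- **Gow's theorem for an element of an outer coset.** -/
theorem coset_prod (N : Subgroup L) [N.Normal] {p : ℕ} [Fact p.Prime] (hS : HasSplitAb p N)
    (hL : LocChar p N) (hcen : center N = ⊥) (hperf : commutator N = ⊤) {τ y X : L}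
    (hgeny : N ⊔ zpowers y = ⊤) (hyτ : y * τ⁻¹ ∈ N) (hX : X ∈ N) {r : ℕ} (hr0 : r ≠ 0) (hr : τ ^ r = 1)
    (hind : ¬ p ∣ N.index) {χ₀ : L → ℂ} (hχ₀ : IsIrrCharacter L χ₀)
    (hdeg₀ : χ₀ 1 = ((p ^ (Nat.card N).factorization p : ℕ) : ℂ)) (hvX : χ₀ X = 1 ∨ χ₀ X = -1)
    (hvy : χ₀ y = 1 ∨ χ₀ y = -1)
    (hω : ∃ m : ℕ, ¬ p ∣ m ∧ (centralChar χ₀ τ⁻¹ = (m : ℂ) ∨ centralChar χ₀ τ⁻¹ = -(m : ℂ)))
    (hd : p ∣ (centralizer ({τ⁻¹} : Set L)).index) :
    ∃ g h : L, g * X * g⁻¹ * (h * y * h⁻¹) = τ := by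
  classical
  have hp : p.Prime := Fact.out
  have hFL := Fintype.ofFinite L
  have : Fintype (IrrCharacter L) := @Fintype.ofFinite _ S0909.finite_irr
  obtain ⟨M, hM⟩ := Blocks.ExistsModular.exists_isPModular hp
  have hMp := Blocks.Local.isPrime_of_isPModular hM
  have hdvd := H330.Gow.dvd_card (H330.Gow.hasSplit_of_ab hS)
  obtain ⟨χ, hχ, hχ1, hχv⟩ := H330.GowSt.exists_st_of_hasSplit (H330.Gow.hasSplit_of_ab hS)
  let st : IrrCharacter N := ⟨χ, hχ⟩
  have hdeg : charDegree χ = p ^ (Nat.card N).factorization p := Blocks.Basic.charDegree_of_eq hχ1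
  have hst' : ∀ θ : IrrCharacter N, charDegree (θ : N → ℂ) = p ^ (Nat.card N).factorization p →
      ¬ p ∣ Nat.card N / charDegree (θ : N → ℂ) := by
    intro θ h
    rw [H143.ChevBlocks.not_dvd_iff θ.2]
    show _ ≤ (charDegree (θ : N → ℂ)).factorization p
    rw [h, hp.factorization_pow]
    simp
  have hst : ¬ p ∣ Nat.card N / charDegree (st : N → ℂ) := hst' st hdeg
  have huniq : ∀ ψ : IrrCharacter N, ¬ p ∣ Nat.card N / charDegree (ψ : N → ℂ) → ψ = st := fun ψ hψ =>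
    H330.GowOne.unique_of_hasSplitAb hS hperf ψ st hψ hst
  have hy0 : χ₀ y ≠ 0 := by rcases hvy with h | h <;> rw [h] <;> norm_num
  have hres₀ : IsIrrCharacter N (fun n : N => χ₀ n) := restrict_irr N hgeny hχ₀ hy0
  have hχ₀r : (fun n : N => χ₀ n) = χ := by
    have h1 := huniq ⟨_, hres₀⟩ (hst' ⟨_, hres₀⟩ (Blocks.Basic.charDegree_of_eq hdeg₀))
    exact congrArg Subtype.val h1
  by_contra hcon
  push Not at hcon
  -- restrictions
  let res : IrrCharacter L → N → ℂ := fun ψ n => (ψ : L → ℂ) n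
  have hres : ∀ ψ : IrrCharacter L, (ψ : L → ℂ) y ≠ 0 → IsIrrCharacter N (res ψ) := fun ψ h =>
    restrict_irr N hgeny ψ.2 h
  let a : IrrCharacter L → ℂ := fun ψ => (ψ : L → ℂ) X * (ψ : L → ℂ) y
  have haint : ∀ ψ, MemLocalRing M (a ψ) := fun ψ => Blocks.Local.memLocalRing_of_isIntegral
    ((CharactersDeep.ModCongr.isIntegral_irr ψ.2 X).mul (CharactersDeep.ModCongr.isIntegral_irr ψ.2 y))
  let F : Finset (IrrCharacter L) := Finset.univ.filter fun ψ => (ψ : L → ℂ) y ≠ 0 ∧ res ψ = χ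
  have hF : ∀ ψ, ψ ∉ F → a ψ = 0 ∨ ∃ θ : IrrCharacter N, θ ≠ st ∧ (θ : N → ℂ) = res ψ := by
    intro ψ hψ
    by_cases h0 : (ψ : L → ℂ) y = 0
    · left
      show (ψ : L → ℂ) X * (ψ : L → ℂ) y = 0
      rw [h0, mul_zero]
    · right
      refine ⟨⟨res ψ, hres ψ h0⟩, ?_, rfl⟩
      intro h
      apply hψ
      rw [Finset.mem_filter]
      exact ⟨Finset.mem_univ _, h0, congrArg Subtype.val h⟩
  -- the sum
  have hcount : Nat.card {q : L × L // q.1 * X * q.1⁻¹ * (q.2 * y * q.2⁻¹) = τ} = 0 := by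
    have : IsEmpty {q : L × L // q.1 * X * q.1⁻¹ * (q.2 * y * q.2⁻¹) = τ} := ⟨fun q => hcon _ _ q.2⟩
    exact Nat.card_of_isEmpty
  have hsum := Characters.ClassMul.card_conj_mul_conj X y τ
  rw [hcount, Nat.cast_zero] at hsum
  have hc0 : (Nat.card L : ℂ) ≠ 0 := by exact_mod_cast Nat.card_pos.ne'
  have hsum0 := (mul_eq_zero.1 hsum.symm).resolve_left hc0
  have hsum1 : ∑ ψ : IrrCharacter L, a ψ * centralChar (ψ : L → ℂ) τ⁻¹ = 0 := by
    have h1 : ∀ ψ : IrrCharacter L, a ψ * centralChar (ψ : L → ℂ) τ⁻¹ =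
        ((centralizer ({τ⁻¹} : Set L)).index : ℂ) *
          ((ψ : L → ℂ) X * (ψ : L → ℂ) y * conj ((ψ : L → ℂ) τ) / (ψ : L → ℂ) 1) := by
      intro ψ
      unfold centralChar
      rw [Blocks.CyclicUpper.conj_irr ψ τ]
      show (ψ : L → ℂ) X * (ψ : L → ℂ) y * _ = _
      ring
    rw [Finset.sum_congr rfl fun ψ _ => h1 ψ, ← Finset.mul_sum, hsum0, mul_zero]
  have hr' : τ⁻¹ ^ r = 1 := by rw [inv_pow, hr, inv_one]
  have hA : MemLocalIdeal M (∑ ψ ∈ F, a ψ * centralChar (ψ : L → ℂ) τ⁻¹) := by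
    have h1 : ∑ ψ ∈ F, a ψ * centralChar (ψ : L → ℂ) τ⁻¹ =
        - ∑ ψ ∈ Finset.univ \ F, a ψ * centralChar (ψ : L → ℂ) τ⁻¹ := by
      rw [eq_neg_iff_add_eq_zero, ← hsum1, ← Finset.sum_sdiff (Finset.subset_univ F), add_comm]
    rw [h1]
    refine Blocks.Local.memLocalIdeal_neg (Blocks.Local.memLocalIdeal_sum fun ψ hψ => ?_)
    rcases hF ψ (Finset.mem_sdiff.1 hψ).2 with h2 | ⟨θ, h2, h3⟩
    · rw [h2, zero_mul]
      exact Blocks.Local.memLocalIdeal_zero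
    · exact Blocks.Local.memLocalIdeal_mul_left (haint ψ)
        (centralChar_mem N hM (quot_comm N hgeny) hr0 hr' hd ψ.2 h3
          (H330.GowBlock.mem_principal hM hdvd hL hcen st hst huniq θ h2))
  -- the value on `F`
  obtain ⟨Λ, hΛ, hΛc, h1, h2⟩ := AbelianQuotient.exists_linear_dual N (quot_comm N hgeny)
  have ha : ∀ ψ ∈ F, a ψ * centralChar (ψ : L → ℂ) τ⁻¹ = χ₀ X * χ₀ y * centralChar χ₀ τ⁻¹ := by
    intro ψ hψ
    obtain ⟨-, h3, h4⟩ := Finset.mem_filter.1 hψ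
    obtain ⟨l, hl, h5⟩ := H470.PiRad.CosetSt.exists_linear N h1 h2 hχ₀ ψ.2 hres₀ (fun n => by
      have := congrFun (h4.trans hχ₀r.symm) n
      exact this)
    have hlX : l X = 1 := (hΛ l).1 hl X hX
    have hly : l y * l τ⁻¹ = 1 := by rw [← map_mul]; exact (hΛ l).1 hl _ hyτ
    have hly' : (l y : ℂ) * (l τ⁻¹ : ℂ) = 1 := by rw [← Units.val_mul, hly, Units.val_one]
    show (ψ : L → ℂ) X * (ψ : L → ℂ) y * centralChar (ψ : L → ℂ) τ⁻¹ = _
    unfold centralChar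
    rw [h5]
    simp only [Pi.mul_apply]
    rw [hlX, map_one, Units.val_one, one_mul, one_mul]
    linear_combination (χ₀ X * χ₀ y * (((centralizer ({τ⁻¹} : Set L)).index : ℂ) * χ₀ τ⁻¹ / χ₀ 1)) * hly'
  have hFc : F.card = N.index := by
    rw [← hΛc]
    refine (Finset.card_bij (fun l _ => (⟨(fun g => (l g : ℂ)) * χ₀, AbelianQuotient.isIrr_linear_mul l hχ₀⟩ :
      IrrCharacter L)) ?_ ?_ ?_).symm
    · intro l hl
      rw [Finset.mem_filter]
      refine ⟨Finset.mem_univ _, ?_, ?_⟩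
      · show (l y : ℂ) * χ₀ y ≠ 0
        exact mul_ne_zero (Units.ne_zero _) hy0
      · funext n
        show (l (n : L) : ℂ) * χ₀ n = χ n
        rw [(hΛ l).1 hl n n.2, Units.val_one, one_mul]
        exact congrFun hχ₀r n
    · intro l hl l' hl' h
      have h3 : (l y : ℂ) * χ₀ y = (l' y : ℂ) * χ₀ y := congrFun (congrArg Subtype.val h) y
      have h4 : l y = l' y := Units.ext (mul_right_cancel₀ hy0 h3)
      refine MonoidHom.ext fun x => ?_
      obtain ⟨n, hn, i, rfl⟩ := exists_zpow N hgeny x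
      rw [map_mul, map_mul, map_zpow, map_zpow, h4, (hΛ l).1 hl n hn, (hΛ l').1 hl' n hn]
    · intro ψ hψ
      obtain ⟨-, h3, h4⟩ := Finset.mem_filter.1 hψ
      obtain ⟨l, hl, h5⟩ := H470.PiRad.CosetSt.exists_linear N h1 h2 hχ₀ ψ.2 hres₀ (fun n => by
        have := congrFun (h4.trans hχ₀r.symm) n
        exact this)
      exact ⟨l, hl, Subtype.ext h5.symm⟩
  obtain ⟨m, hm, hω⟩ := hω
  rw [Finset.sum_congr rfl ha, Finset.sum_const, hFc, nsmul_eq_mul] at hA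
  have hfin : MemLocalIdeal M (((N.index * m : ℕ) : ℂ)) := by
    have h3 : (N.index : ℂ) * (χ₀ X * χ₀ y * centralChar χ₀ τ⁻¹) = ((N.index * m : ℕ) : ℂ) ∨
        (N.index : ℂ) * (χ₀ X * χ₀ y * centralChar χ₀ τ⁻¹) = -((N.index * m : ℕ) : ℂ) := by
      rcases hvX with e1 | e1 <;> rcases hvy with e2 | e2 <;> rcases hω with e3 | e3 <;> rw [e1, e2, e3] <;>
        push_cast <;> first | (left; ring1) | (right; ring1)
    rcases h3 with h3 | h3
    · rwa [h3] at hA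
    · rw [h3] at hA
      exact Blocks.Local.memLocalIdeal_neg_iff.1 hA
  rw [Blocks.Local.memLocalIdeal_natCast_iff hM, hp.dvd_mul] at hfin
  exact hfin.elim hind hm

end Cfsg.Agent.H848.Out
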